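import Mathlib

/-! Two-parts of divisors. -/
set_option autoImplicit false

namespace CfsgLib.TwoPart

theorem val_eq_of_dvd_two_mul {g N : ℕ} (hN : N ≠ 0) (h : g ∣ 2 * N) (h' : ¬ g ∣ N) :
    padicValNat 2 g = padicValNat 2 N + 1 := by
  obtain ⟨k, hk⟩ := h
  have hg : g ≠ 0 := by rintro rfl; simp at hk; exact hN hk
  have hk0 : k ≠ 0 := by rintro rfl; simp at hk; exact hN hk
  have hodd : ¬ 2 ∣ k := by
    rintro ⟨j, rfl⟩
    exact h' ⟨j, by linarith⟩
  haveI : Fact (Nat.Prime 2) := ⟨Nat.prime_two⟩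
  have := congrArg (padicValNat 2) hk
  rw [padicValNat.mul two_ne_zero hN, padicValNat.mul hg hk0, padicValNat.eq_zero_of_not_dvd hodd] at this
  simp at this
  omega

theorem val_le_of_dvd {a b : ℕ} (hb : b ≠ 0) (h : a ∣ b) : padicValNat 2 a ≤ padicValNat 2 b := by
  haveI : Fact (Nat.Prime 2) := ⟨Nat.prime_two⟩
  exact (padicValNat_dvd_iff_le hb).1 (pow_padicValNat_dvd.trans h)

end CfsgLib.TwoPart
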