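import Mathlib
import Cfsg.Prelude.Def_Transfer

/-!
# Groups of class two and exponent four with few involutions
-/

set_option autoImplicit false
set_option linter.style.haveILetI false

namespace CfsgLib.ClassTwoExpFour

open scoped commutatorElement

universe u v w

/-- A quadratic map on an elementary abelian 2-group with only the trivial zero. -/
theorem card_le_of_anisotropic {V : Type u} [AddCommGroup V] [Fintype V] [Module (ZMod 2) V] {n : ℕ}
    (q : V → Fin n → ZMod 2) (h0 : q 0 = 0)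
    (hB : ∀ u v w : V, q (u + (v + w)) - q u - q (v + w) = (q (u + v) - q u - q v) + (q (u + w) - q u - q w))
    (hz : ∀ v, q v = 0 → v = 0) : Fintype.card V ≤ 2 ^ (2 * n) := by
  classical
  haveI : Fact (Nat.Prime 2) := ⟨Nat.prime_two⟩
  obtain ⟨d, hd⟩ : ∃ d, Fintype.card V = 2 ^ d :=
    ⟨Module.finrank (ZMod 2) V, by rw [Module.card_eq_pow_finrank (K := ZMod 2), ZMod.card]⟩
  let χ : ZMod 2 → ℤ := fun a => if a = 0 then 1 else -1
  have hχ : ∀ a b, χ (a + b) = χ a * χ b := fun a b => by fin_cases a <;> fin_cases b <;> rfl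
  have hχ0 : χ 0 = 1 := rfl
  
  -- square of one exponential sum
  have hS : ∀ Q : V → ZMod 2, (∀ u v w : V, Q (u + (v + w)) - Q u - Q (v + w) =
      (Q (u + v) - Q u - Q v) + (Q (u + w) - Q u - Q w)) →
      (2 : ℤ) ^ ((d + 1) / 2) ∣ ∑ v, χ (Q v) := by
    intro Q hQ
    have h2 : ((2 : ℤ) ^ d) ∣ (∑ v, χ (Q v)) * (∑ v, χ (Q v)) := by
      rw [Finset.sum_mul_sum]
      have e : ∀ v : V, ∑ w, χ (Q v) * χ (Q w) = ∑ u, χ (Q u) * χ (Q (v + u) - Q v - Q u) := by
        intro v
        rw [← Equiv.sum_comp (Equiv.addLeft v) (fun w => χ (Q v) * χ (Q w))]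
        refine Finset.sum_congr rfl fun u _ => ?_
        rw [Equiv.coe_addLeft, ← hχ, ← hχ]
        congr 1
        linear_combination (2 : ZMod 2) * 0 + (CharTwo.add_self_eq_zero (Q v))
      simp only [e]
      rw [Finset.sum_comm]
      refine Finset.dvd_sum fun u _ => ?_
      rw [← Finset.mul_sum]
      refine Dvd.dvd.mul_left ?_ _
      by_cases hu : ∀ v, Q (v + u) - Q v - Q u = 0
      · simp only [hu, hχ0, Finset.sum_const, Finset.card_univ, hd, nsmul_eq_mul, mul_one]
        simp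
      · push Not at hu
        obtain ⟨v₀, hv₀⟩ := hu
        have hzero : ∑ v, χ (Q (v + u) - Q v - Q u) = 0 := by
          have hflip : ∀ v, χ (Q (v + v₀ + u) - Q (v + v₀) - Q u) = - χ (Q (v + u) - Q v - Q u) := by
            intro v
            have h := hQ u v v₀
            rw [add_comm u (v + v₀), add_comm u v, add_comm u v₀] at h
            have h' : Q (v + v₀ + u) - Q (v + v₀) - Q u = (Q (v + u) - Q v - Q u) + (Q (v₀ + u) - Q v₀ - Q u) := by
              linear_combination h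
            rw [h', hχ, show Q (v₀ + u) - Q v₀ - Q u = 1 from (Fin.eq_one_of_ne_zero _ hv₀)]
            show _ * (-1 : ℤ) = _
            ring
          have := Equiv.sum_comp (Equiv.addRight v₀) (fun v => χ (Q (v + u) - Q v - Q u))
          simp only [Equiv.coe_addRight, hflip, Finset.sum_neg_distrib] at this
          omega
        rw [hzero]
        exact dvd_zero _
    have h3 : 2 ^ d ∣ (∑ v, χ (Q v)).natAbs * (∑ v, χ (Q v)).natAbs := by
      rw [← Int.natAbs_mul]
      simpa [Int.natAbs_pow] using Int.natAbs_dvd_natAbs.mpr h2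
    rw [← Int.natAbs_dvd_natAbs, Int.natAbs_pow, show (2 : ℤ).natAbs = 2 from rfl]
    generalize (∑ v, χ (Q v)).natAbs = s at h3 ⊢
    rcases Nat.eq_zero_or_pos s with rfl | hs
    · exact dvd_zero _
    have h4 := (Nat.prime_two.pow_dvd_iff_le_factorization (Nat.mul_pos hs hs).ne').mp h3
    rw [Nat.factorization_mul hs.ne' hs.ne', Finsupp.add_apply] at h4
    exact (Nat.prime_two.pow_dvd_iff_le_factorization hs.ne').mpr (by omega)
  -- counting the zeros
  have hcount : (2 : ℤ) ^ n = ∑ s : Finset (Fin n), ∑ v, χ (∑ i ∈ s, q v i) := by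
    rw [Finset.sum_comm]
    have e : ∀ v, ∑ s : Finset (Fin n), χ (∑ i ∈ s, q v i) = if v = 0 then (2 : ℤ) ^ n else 0 := by
      intro v
      have hprod : ∀ s : Finset (Fin n), χ (∑ i ∈ s, q v i) = ∏ i ∈ s, χ (q v i) := by
        intro s
        induction s using Finset.induction with
        | empty => simp [hχ0]
        | insert a s ha ih => rw [Finset.sum_insert ha, Finset.prod_insert ha, hχ, ih]
      simp only [hprod]
      rw [show (Finset.univ : Finset (Finset (Fin n))) = (Finset.univ : Finset (Fin n)).powerset by simp,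
        ← Finset.prod_one_add]
      split_ifs with hv
      · simp [hv, h0, hχ0]
      · obtain ⟨i, hi⟩ := Function.ne_iff.mp fun e => hv (hz v e)
        refine Finset.prod_eq_zero (Finset.mem_univ i) ?_
        rw [Fin.eq_one_of_ne_zero _ hi]
        rfl
    simp only [e]
    simp
  have hdvd : (2 : ℤ) ^ ((d + 1) / 2) ∣ (2 : ℤ) ^ n := by
    rw [hcount]
    refine Finset.dvd_sum fun s _ => hS (fun v => ∑ i ∈ s, q v i) fun u v w => ?_
    simp only [← Finset.sum_sub_distrib, ← Finset.sum_add_distrib]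
    exact Finset.sum_congr rfl fun i _ => congrFun (hB u v w) i
  have : (d + 1) / 2 ≤ n := by
    have h5 := Int.natAbs_dvd_natAbs.mpr hdvd
    rwa [Int.natAbs_pow, Int.natAbs_pow, show (2 : ℤ).natAbs = 2 from rfl, Nat.pow_dvd_pow_iff_le_right (by norm_num)] at h5
  rw [hd]
  exact Nat.pow_le_pow_right (by norm_num) (by omega)

/-- The multiplicative form. -/
theorem card_le_of_anisotropic' {V : Type u} {W : Type v} [CommGroup V] [CommGroup W] [Finite V] [Finite W]
    (hV : ∀ x : V, x * x = 1) (hW : ∀ x : W, x * x = 1) (q : V → W) (h0 : q 1 = 1)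
    (hB : ∀ u v w : V, q (u * (v * w)) / q u / q (v * w) = (q (u * v) / q u / q v) * (q (u * w) / q u / q w))
    (hz : ∀ v, q v = 1 → v = 1) : Nat.card V ≤ Nat.card W ^ 2 := by
  classical
  haveI : Fact (Nat.Prime 2) := ⟨Nat.prime_two⟩
  haveI : Fintype (Additive V) := Fintype.ofFinite _
  haveI : Fintype (Additive W) := Fintype.ofFinite _
  letI : Module (ZMod 2) (Additive V) := AddCommGroup.zmodModule (n := 2) fun x => by
    rw [two_nsmul]; exact hV x
  letI : Module (ZMod 2) (Additive W) := AddCommGroup.zmodModule (n := 2) fun x => by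
    rw [two_nsmul]; exact hW x
  let b := Module.finBasis (ZMod 2) (Additive W)
  have h := card_le_of_anisotropic (V := Additive V) (fun v => b.equivFun (Additive.ofMul (q (Additive.toMul v))))
    (by
      show b.equivFun (Additive.ofMul (q 1)) = 0
      rw [h0]; exact map_zero b.equivFun)
    (fun u v w => by
      simp only [← map_sub, ← map_add]
      exact congrArg b.equivFun (hB u v w))
    (fun v hv => hz v (b.equivFun.map_eq_zero_iff.mp hv))
  have hcW : Nat.card W = 2 ^ Module.finrank (ZMod 2) (Additive W) := by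
    rw [← Nat.card_congr (Additive.ofMul (α := W)).symm, Nat.card_eq_fintype_card, Module.card_eq_pow_finrank (K := ZMod 2),
      ZMod.card]
  rw [hcW, ← pow_mul, mul_comm, ← Nat.card_congr (Additive.ofMul (α := V)).symm, Nat.card_eq_fintype_card]
  exact h

variable {G : Type w} [Group G] [Finite G]

/-- The key inequality. -/
theorem relIndex_le (P A B C : Subgroup G) (hBA : B ≤ A) (hAP : A ≤ P) (hCB : C ≤ B)
    (hBc : ∀ b ∈ B, ∀ x ∈ P, b * x = x * b) (hB2 : ∀ b ∈ B, b * b = 1)
    (hsq : ∀ x ∈ P, x * x ∈ B) (hcomm : ∀ x ∈ P, ∀ y ∈ P, ⁅x, y⁆ ∈ B)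
    (hA : ∀ a ∈ A, a * a ∈ C ∧ ∀ x ∈ P, ⁅a, x⁆ ∈ C) (hzero : ∀ x ∈ P, x * x ∈ C → x ∈ A) :
    A.relIndex P ≤ C.relIndex B ^ 2 := by
  classical
  haveI hAn : (A.subgroupOf P).Normal := by
    refine ⟨fun a ha x => ?_⟩
    rw [Subgroup.mem_subgroupOf] at ha ⊢
    have h1 := hBA (hcomm x x.2 a a.2)
    have e : ((x * a * x⁻¹ : P) : G) = ⁅(x : G), (a : G)⁆ * a := by
      push_cast; rw [commutatorElement_def]; group
    rw [e]; exact A.mul_mem h1 ha
  haveI hCn : (C.subgroupOf B).Normal := by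
    refine ⟨fun c hc b => ?_⟩
    have e : b * c = c * b := Subtype.ext (hBc b b.2 c (hAP (hBA c.2)))
    rwa [e, mul_inv_cancel_right]
  letI : CommGroup (P ⧸ A.subgroupOf P) :=
    { (inferInstance : Group (P ⧸ A.subgroupOf P)) with
      mul_comm := by
        rintro ⟨x⟩ ⟨y⟩
        refine QuotientGroup.eq.mpr ?_
        rw [Subgroup.mem_subgroupOf]
        have e : (((x * y)⁻¹ * (y * x) : P) : G) = ⁅(y : G)⁻¹, (x : G)⁻¹⁆ := by
          push_cast; rw [commutatorElement_def]; group
        rw [e]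
        exact hBA (hcomm _ (P.inv_mem y.2) _ (P.inv_mem x.2)) }
  letI : CommGroup (B ⧸ C.subgroupOf B) :=
    { (inferInstance : Group (B ⧸ C.subgroupOf B)) with
      mul_comm := by
        rintro ⟨x⟩ ⟨y⟩
        exact congrArg QuotientGroup.mk (Subtype.ext (hBc x x.2 y (hAP (hBA y.2)))) }
  -- the map induced by squaring
  have hwd : ∀ x y : P, x⁻¹ * y ∈ A.subgroupOf P →
      (QuotientGroup.mk (⟨(x : G) * x, hsq x x.2⟩ : B) : B ⧸ C.subgroupOf B) = QuotientGroup.mk ⟨(y : G) * y, hsq y y.2⟩ := by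
    intro x y hxy
    rw [Subgroup.mem_subgroupOf] at hxy
    refine QuotientGroup.eq.mpr ?_
    rw [Subgroup.mem_subgroupOf]
    push_cast
    obtain ⟨a, ha, hy⟩ : ∃ a ∈ A, (y : G) = x * a := ⟨_, hxy, by push_cast; group⟩
    rw [hy]
    have e : ((x : G) * x)⁻¹ * (x * a * (x * a)) = (x : G)⁻¹ * ⁅a, (x : G)⁆ * x * (a * a) := by
      rw [commutatorElement_def]; group
    rw [e]
    have hc := (hA a ha).2 x x.2
    rw [mul_assoc (x : G)⁻¹, hBc _ (hCB hc) x x.2, inv_mul_cancel_left]
    exact C.mul_mem hc (hA a ha).1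
  let q : P ⧸ A.subgroupOf P → B ⧸ C.subgroupOf B :=
    Quotient.lift (fun x : P => QuotientGroup.mk (⟨(x : G) * x, hsq x x.2⟩ : B))
      (fun x y h => hwd x y (QuotientGroup.leftRel_apply.mp h))
  have hmul : ∀ x y : P, q (QuotientGroup.mk (x * y)) / q (QuotientGroup.mk x) / q (QuotientGroup.mk y) =
      QuotientGroup.mk (⟨⁅(y : G), (x : G)⁆, hcomm y y.2 x x.2⟩ : B) := by
    intro x y
    rw [div_eq_iff_eq_mul, div_eq_iff_eq_mul]
    refine congrArg QuotientGroup.mk (Subtype.ext ?_)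
    show ((x * y : P) : G) * ((x * y : P) : G) = ⁅(y : G), (x : G)⁆ * ((y : G) * y) * ((x : G) * x)
    have hc := hcomm y y.2 x x.2
    calc ((x * y : P) : G) * ((x * y : P) : G) = (x : G) * ⁅(y : G), (x : G)⁆ * x * (y * y) := by
          push_cast; rw [commutatorElement_def]; group
      _ = ⁅(y : G), (x : G)⁆ * ((x : G) * x) * (y * y) := by rw [← hBc _ hc x x.2]; group
      _ = _ := by rw [mul_assoc, hBc _ (hsq x x.2) _ (P.mul_mem y.2 y.2), ← mul_assoc]
  rw [Subgroup.relIndex, Subgroup.relIndex, Subgroup.index_eq_card, Subgroup.index_eq_card]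
  refine card_le_of_anisotropic' ?_ ?_ q ?_ ?_ ?_
  · rintro ⟨x⟩
    exact (QuotientGroup.eq_one_iff _).mpr (Subgroup.mem_subgroupOf.mpr (hBA (hsq x x.2)))
  · rintro ⟨b⟩
    refine (QuotientGroup.eq_one_iff _).mpr (Subgroup.mem_subgroupOf.mpr ?_)
    push_cast
    rw [hB2 b b.2]; exact C.one_mem
  · refine (QuotientGroup.eq_one_iff _).mpr (Subgroup.mem_subgroupOf.mpr ?_)
    simp
  · rintro ⟨x⟩ ⟨y⟩ ⟨z⟩
    show q (QuotientGroup.mk (x * (y * z))) / q (QuotientGroup.mk x) / q (QuotientGroup.mk (y * z)) =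
      (q (QuotientGroup.mk (x * y)) / q (QuotientGroup.mk x) / q (QuotientGroup.mk y)) *
        (q (QuotientGroup.mk (x * z)) / q (QuotientGroup.mk x) / q (QuotientGroup.mk z))
    rw [hmul, hmul, hmul, ← QuotientGroup.mk_mul]
    refine congrArg QuotientGroup.mk (Subtype.ext ?_)
    push_cast
    have hc := hcomm z z.2 x x.2
    calc ⁅(y : G) * z, (x : G)⁆ = (y : G) * ⁅(z : G), (x : G)⁆ * (y : G)⁻¹ * ⁅(y : G), (x : G)⁆ := by
          simp only [commutatorElement_def]; group
      _ = _ := by rw [← hBc _ hc y y.2, mul_inv_cancel_right, hBc _ hc _ (hAP (hBA (hcomm y y.2 x x.2)))]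
  · rintro ⟨x⟩ hx
    refine (QuotientGroup.eq_one_iff _).mpr (Subgroup.mem_subgroupOf.mpr (hzero x x.2 ?_))
    exact Subgroup.mem_subgroupOf.mp ((QuotientGroup.eq_one_iff _).mp hx)

end CfsgLib.ClassTwoExpFour
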