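import Mathlib
import Cfsg.Agent.Lib.TwoPart.ClassTwoExpFour
import Cfsg.Prelude.Def_Transfer

/-!
# `|G| ≤ |N|³`
-/

set_option autoImplicit false
set_option linter.style.haveILetI false

namespace CfsgLib.ClassTwoExpFour

open scoped commutatorElement

universe w

variable {G : Type w} [Group G] [Finite G]

theorem zpowers_cases {c g : G} (hc : c * c = 1) (hg : g ∈ Subgroup.zpowers c) : g = 1 ∨ g = c := by
  obtain ⟨k, rfl⟩ := Subgroup.mem_zpowers_iff.mp hg
  have h2 : c ^ (2 : ℤ) = 1 := by rw [zpow_two, hc]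
  rcases Int.even_or_odd' k with ⟨m, rfl | rfl⟩
  · left; rw [zpow_mul, h2, one_zpow]
  · right; rw [zpow_add_one, zpow_mul, h2, one_zpow, one_mul]

theorem main (hG : IsPGroup 2 G) (hcl : (⊤ : Subgroup G).lowerCentralSeries 2 = ⊥) (hexp : ∀ x : G, x ^ 4 = 1)
    (hN : ∀ x y : G, x ^ 2 = 1 → y ^ 2 = 1 → (x * y) ^ 2 = 1) :
    Nat.card G ≤ Nat.card {x : G // x ^ 2 = 1} ^ 3 ∧
      (¬ Cfsg.IsSpecial 2 G → Nat.card G < Nat.card {x : G // x ^ 2 = 1} ^ 3) := by
  classical
  haveI : Fact (Nat.Prime 2) := ⟨Nat.prime_two⟩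
  have hcZ : ∀ x y : G, ⁅x, y⁆ ∈ Subgroup.center G := fun x y => Subgroup.mem_center_iff.mpr fun g => by
    have h : ⁅⁅x, y⁆, g⁆ ∈ (⊤ : Subgroup G).lowerCentralSeries 2 :=
      Subgroup.commutator_mem_commutator (Subgroup.commutator_mem_commutator trivial trivial) trivial
    rw [hcl, Subgroup.mem_bot] at h
    exact (commutatorElement_eq_one_iff_mul_comm.mp h).symm
  let N : Subgroup G :=
    { carrier := {x | x * x = 1}
      one_mem' := mul_one 1
      mul_mem' := fun {a b} ha hb => by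
        simpa [pow_two] using hN a b (by simpa [pow_two] using ha) (by simpa [pow_two] using hb)
      inv_mem' := fun {a} ha => by
        show a⁻¹ * a⁻¹ = 1
        rw [← mul_inv_rev, show a * a = 1 from ha, inv_one] }
  have mN : ∀ x, x ∈ N ↔ x * x = 1 := fun x => Iff.rfl
  have hcard : Nat.card N = Nat.card {x : G // x ^ 2 = 1} :=
    Nat.card_congr (Equiv.subtypeEquivRight fun x => by rw [mN, pow_two])
  rw [← hcard]
  have hsqN : ∀ x, x * x ∈ N := fun x => by
    rw [mN, ← pow_two x, ← pow_two, ← pow_mul]; exact hexp x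
  have hcN : ∀ x y : G, ⁅x, y⁆ ∈ N := fun x y => by
    have e2 : (y * x) * (y * x) = ⁅x, y⁆ * ((y * y) * (x * x)) := by
      calc (y * x) * (y * x) = y * ⁅x, y⁆ * y * (x * x) := by rw [commutatorElement_def]; group
        _ = _ := by rw [Subgroup.mem_center_iff.mp (hcZ x y) y]; group
    have h : ⁅x, y⁆ = (y * x) * (y * x) * ((y * y) * (x * x))⁻¹ := by rw [e2, mul_inv_cancel_right]
    rw [h]
    exact N.mul_mem (hsqN _) (N.inv_mem (N.mul_mem (hsqN _) (hsqN _)))
  have hsqZ : ∀ x, x * x ∈ Subgroup.center G := fun x => Subgroup.mem_center_iff.mpr fun g => by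
    have h1 : ⁅x * x, g⁆ = 1 := by
      calc ⁅x * x, g⁆ = x * ⁅x, g⁆ * x⁻¹ * ⁅x, g⁆ := by simp only [commutatorElement_def]; group
        _ = ⁅x, g⁆ * ⁅x, g⁆ := by rw [Subgroup.mem_center_iff.mp (hcZ x g) x, mul_inv_cancel_right]
        _ = 1 := (mN _).mp (hcN x g)
    exact (commutatorElement_eq_one_iff_mul_comm.mp h1).symm
  set W := N ⊓ Subgroup.center G with hW
  have hWN : W ≤ N := inf_le_left
  have hsqW : ∀ x, x * x ∈ W := fun x => ⟨hsqN x, hsqZ x⟩
  have hcW : ∀ x y : G, ⁅x, y⁆ ∈ W := fun x y => ⟨hcN x y, hcZ x y⟩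
  have hWc : ∀ b ∈ W, ∀ x : G, b * x = x * b := fun b hb x => (Subgroup.mem_center_iff.mp hb.2 x).symm
  have normal_of : ∀ K : Subgroup G, W ≤ K → K.Normal := fun K hK => ⟨fun k hk g => by
    have e : g * k * g⁻¹ = ⁅g, k⁆ * k := by rw [commutatorElement_def]; group
    rw [e]; exact K.mul_mem (hK (hcW g k)) hk⟩
  -- a supplement meeting `N` in `W`
  obtain ⟨M, ⟨hWM, hMN⟩, hMmax⟩ := (Set.toFinite {M : Subgroup G | W ≤ M ∧ M ⊓ N ≤ W}).exists_maximal
    ⟨W, le_rfl, inf_le_left⟩
  have hsup : M ⊔ N = ⊤ := by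
    haveI := normal_of M hWM
    rw [eq_top_iff]
    intro g _
    by_contra hg
    have hgM : g ∉ M := fun h => hg (Subgroup.mem_sup_left h)
    have hle : (M ⊔ Subgroup.zpowers g) ⊓ N ≤ W := by
      rintro z ⟨hz1, hz2⟩
      obtain ⟨a, ha, b, hb, rfl⟩ := Subgroup.mem_sup_of_normal_left.mp hz1
      obtain ⟨k, rfl⟩ := Subgroup.mem_zpowers_iff.mp hb
      rcases Int.even_or_odd' k with ⟨j, rfl | rfl⟩
      · have hgm : g ^ (2 * j) ∈ M := by
          rw [zpow_mul, zpow_two]; exact M.zpow_mem (hWM (hsqW g)) j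
        exact hMN ⟨M.mul_mem ha hgm, hz2⟩
      · exfalso
        apply hg
        have hgm : g ^ (2 * j) ∈ M := by
          rw [zpow_mul, zpow_two]; exact M.zpow_mem (hWM (hsqW g)) j
        have : g = (a * g ^ (2 * j))⁻¹ * (a * g ^ (2 * j + 1)) := by rw [zpow_add_one]; group
        rw [this]
        exact (M ⊔ N).mul_mem (Subgroup.mem_sup_left (M.inv_mem (M.mul_mem ha hgm))) (Subgroup.mem_sup_right hz2)
    exact hgM (hMmax ⟨hWM.trans le_sup_left, hle⟩ le_sup_left (Subgroup.mem_sup_right (Subgroup.mem_zpowers g)))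
  haveI hNn : N.Normal := normal_of N hWN
  have hidx : N.index = W.relIndex M := by
    have h1 : N.relIndex (M ⊔ N) = N.relIndex M := Subgroup.relIndex_sup_right M N
    rw [hsup, Subgroup.relIndex_top_right] at h1
    rw [h1, ← Subgroup.inf_relIndex_right N M]
    congr 1
    exact le_antisymm ((inf_comm N M).le.trans hMN) (le_inf hWN hWM)
  have hGc : Nat.card G = Nat.card N * N.index := (Subgroup.card_mul_index N).symm
  have hb : W.relIndex M ≤ Nat.card W ^ 2 := by
    have := relIndex_le M W W ⊥ le_rfl hWM bot_le (fun b hb x _ => hWc b hb x) (fun b hb => (mN b).mp hb.1)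
      (fun x _ => hsqW x) (fun x _ y _ => hcW x y)
      (fun a ha => ⟨Subgroup.mem_bot.mpr ((mN a).mp ha.1), fun x _ => Subgroup.mem_bot.mpr
        (commutatorElement_eq_one_iff_mul_comm.mpr (hWc a ha x))⟩)
      (fun x hx h => hMN ⟨hx, (mN x).mpr (Subgroup.mem_bot.mp h)⟩)
    rwa [Subgroup.relIndex_bot_left] at this
  have hN0 : 0 < Nat.card N := Nat.card_pos
  constructor
  · rw [hGc, hidx, pow_succ']
    exact Nat.mul_le_mul_left _ (hb.trans (Nat.pow_le_pow_left (Subgroup.card_le_of_le hWN) 2))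
  intro hns
  rw [hGc, pow_succ']
  refine Nat.mul_lt_mul_of_pos_left ?_ hN0
  by_cases hNZ : N ≤ Subgroup.center G
  swap
  · rw [hidx]
    refine lt_of_le_of_lt hb (Nat.pow_lt_pow_left ?_ two_ne_zero)
    refine lt_of_le_of_ne (Subgroup.card_le_of_le hWN) fun e => hNZ ?_
    rw [← Subgroup.eq_of_le_of_card_ge hWN e.ge]
    exact inf_le_right
  have hWeq : W = N := inf_eq_left.mpr hNZ
  by_cases hZN : Subgroup.center G ≤ N
  swap
  · obtain ⟨c, hcc, hcn⟩ := SetLike.not_le_iff_exists.mp hZN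
    set A := N ⊔ Subgroup.zpowers c with hA
    set C := Subgroup.zpowers (c * c) with hC
    have hcom : ∀ x, c * x = x * c := fun x => (Subgroup.mem_center_iff.mp hcc x).symm
    have hc1 : c * c ≠ 1 := fun h => hcn ((mN c).mpr h)
    have hr := relIndex_le ⊤ A N C le_sup_left le_top (Subgroup.zpowers_le.mpr (hsqN c))
      (fun b hb x _ => hWc b (hWeq.ge hb) x) (fun b hb => (mN b).mp hb)
      (fun x _ => hsqN x) (fun x _ y _ => hcN x y)
      (fun a ha => by
        have hac : a ∈ Subgroup.center G := (sup_le hNZ (Subgroup.zpowers_le.mpr hcc) : A ≤ _) ha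
        refine ⟨?_, fun x _ => ?_⟩
        · obtain ⟨u, hu, v, hv, rfl⟩ := Subgroup.mem_sup_of_normal_left.mp ha
          obtain ⟨k, rfl⟩ := Subgroup.mem_zpowers_iff.mp hv
          have hcu : c ^ k * u = u * c ^ k := (hWc u (hWeq.ge hu) (c ^ k)).symm
          rw [show u * c ^ k * (u * c ^ k) = u * (c ^ k * u) * c ^ k by group, hcu, ← mul_assoc u u,
            (mN u).mp hu, one_mul, ← (Commute.refl c).mul_zpow]
          exact Subgroup.zpow_mem _ (Subgroup.mem_zpowers _) k
        · rw [commutatorElement_eq_one_iff_mul_comm.mpr (Subgroup.mem_center_iff.mp hac x).symm]; exact C.one_mem)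
      (fun x _ hx => by
        rcases zpowers_cases ((mN _).mp (hsqN c)) hx with h | h
        · exact Subgroup.mem_sup_left ((mN x).mpr h)
        · have h1 : x * c⁻¹ ∈ N := by
            rw [mN, show x * c⁻¹ * (x * c⁻¹) = x * (c⁻¹ * x) * c⁻¹ by group,
              show c⁻¹ * x = x * c⁻¹ from ((show Commute c x from hcom x).inv_left).eq, ← mul_assoc x x, h]
            group
          have : x = x * c⁻¹ * c := by group
          rw [this]
          exact A.mul_mem (Subgroup.mem_sup_left h1) (Subgroup.mem_sup_right (Subgroup.mem_zpowers c)))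
    rw [Subgroup.relIndex_top_right] at hr
    have h2 : N.index = N.relIndex A * A.index := (Subgroup.relIndex_mul_index le_sup_left).symm
    have h3 : N.relIndex A ≤ 2 := by
      rw [hA, sup_comm, Subgroup.relIndex_sup_right, Subgroup.relIndex, Subgroup.index_eq_card]
      have : Nat.card (Subgroup.zpowers c) = 4 ∨ Nat.card (Subgroup.zpowers c) ≤ 4 :=
        Or.inr (by rw [Nat.card_zpowers]; exact orderOf_le_of_pow_eq_one (by norm_num) (hexp c))
      have h5 := Subgroup.card_eq_card_quotient_mul_card_subgroup (N.subgroupOf (Subgroup.zpowers c))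
      have h6 : 2 ≤ Nat.card (N.subgroupOf (Subgroup.zpowers c)) := by
        refine (Subgroup.one_lt_card_iff_ne_bot _).mpr fun e => hc1 ?_
        have hm : (⟨c * c, mul_mem (Subgroup.mem_zpowers c) (Subgroup.mem_zpowers c)⟩ : Subgroup.zpowers c) ∈
            N.subgroupOf (Subgroup.zpowers c) := hsqN c
        rw [e, Subgroup.mem_bot] at hm
        exact congrArg Subtype.val hm
      rcases this with h | h <;> nlinarith
    have h4 : Nat.card N = 2 * C.relIndex N := by
      rw [← Subgroup.card_mul_index (C.subgroupOf N), Subgroup.relIndex,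
        Nat.card_congr (Subgroup.subgroupOfEquivOfLe (show C ≤ N from Subgroup.zpowers_le.mpr (hsqN c))).toEquiv,
        Nat.card_zpowers, orderOf_eq_prime (by rw [pow_two]; exact (mN _).mp (hsqN c)) hc1]
    have h7 : 0 < C.relIndex N := Nat.pos_of_ne_zero fun h => by rw [h, mul_zero] at h4; omega
    rw [h2, h4]
    nlinarith
  have hZ : Subgroup.center G = N := le_antisymm hZN hNZ
  have hcomle : commutator G ≤ N := Subgroup.commutator_le.mpr fun x _ y _ => hcN x y
  have hlt : commutator G < N := by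
    refine lt_of_le_of_ne hcomle fun e => hns ⟨hG, le_antisymm ?_ ?_, e.trans hZ.symm⟩
    · rw [hZ]
      intro g hg
      by_contra hgN
      obtain ⟨K, ⟨hNK, hgK⟩, hKmax⟩ := (Set.toFinite {K : Subgroup G | N ≤ K ∧ g ∉ K}).exists_maximal ⟨N, le_rfl, hgN⟩
      haveI := normal_of K (hWN.trans hNK)
      have hco : IsCoatom K := by
        refine ⟨fun h => hgK (h ▸ trivial), fun L hL => ?_⟩
        have hin : ∀ L : Subgroup G, K < L → g ∈ L := fun L hL => by
          by_contra hgL
          exact hL.not_ge (hKmax ⟨hNK.trans hL.le, hgL⟩ hL.le)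
        rw [eq_top_iff]
        intro h _
        by_cases hh : h ∈ K
        · exact hL.le hh
        have hm := hin (K ⊔ Subgroup.zpowers h) (lt_of_le_of_ne le_sup_left fun e => hh (by
          rw [e]; exact Subgroup.mem_sup_right (Subgroup.mem_zpowers h)))
        obtain ⟨u, hu, v, hv, huv⟩ := Subgroup.mem_sup_of_normal_left.mp hm
        obtain ⟨i, rfl⟩ := Subgroup.mem_zpowers_iff.mp hv
        have heven : ∀ j : ℤ, h ^ (2 * j) ∈ K := fun j => by
          rw [zpow_mul, zpow_two]; exact K.zpow_mem (hNK (hsqN h)) j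
        rcases Int.even_or_odd' i with ⟨j, rfl | rfl⟩
        · exact absurd (huv ▸ K.mul_mem hu (heven j)) hgK
        · have : h = (u * h ^ (2 * j))⁻¹ * g := by rw [← huv, zpow_add_one]; group
          rw [this]
          exact L.mul_mem (L.inv_mem (hL.le (K.mul_mem hu (heven j)))) (hin L hL)
      rw [frattini, Order.radical] at hg
      simp only [Subgroup.mem_iInf] at hg
      exact hgK (hg K hco)
    · rw [hZ, ← e, frattini, Order.radical]
      refine le_iInf₂ fun K hK => ?_
      haveI := hG.isNilpotent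
      haveI hKn : K.Normal := Subgroup.NormalizerCondition.normal_of_coatom K Group.normalizerCondition_of_isNilpotent hK
      rw [commutator_def]
      refine Subgroup.commutator_le.mpr fun x _ y _ => ?_
      by_cases hx : x ∈ K
      · rw [commutatorElement_def, show x * y * x⁻¹ * y⁻¹ = x * (y * x⁻¹ * y⁻¹) by group]
        exact K.mul_mem hx (hKn.conj_mem _ (K.inv_mem hx) y)
      have htop := hK.2 (K ⊔ Subgroup.zpowers x) (lt_of_le_of_ne le_sup_left fun e => hx (by
        rw [e]; exact Subgroup.mem_sup_right (Subgroup.mem_zpowers x)))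
      obtain ⟨u, hu, v, hv, rfl⟩ := Subgroup.mem_sup_of_normal_left.mp (htop.ge (Subgroup.mem_top y))
      obtain ⟨i, rfl⟩ := Subgroup.mem_zpowers_iff.mp hv
      have e2 : ⁅x, u * x ^ i⁆ = (x * u * x⁻¹) * u⁻¹ := by
        rw [commutatorElement_def]; group
      rw [e2]
      exact K.mul_mem (hKn.conj_mem u hu x) (K.inv_mem hu)
  obtain ⟨D, ⟨hcD, hDN⟩, hDmax⟩ := (Set.toFinite {D : Subgroup G | commutator G ≤ D ∧ D < N}).exists_maximal
    ⟨commutator G, le_rfl, hlt⟩
  have hcD' : ∀ x y : G, ⁅x, y⁆ ∈ D := fun x y => hcD (Subgroup.commutator_mem_commutator trivial trivial)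
  haveI hDnorm : D.Normal := ⟨fun d hd g => by
    rw [show g * d * g⁻¹ = ⁅g, d⁆ * d by rw [commutatorElement_def]; group]
    exact D.mul_mem (hcD' g d) hd⟩
  have hsame : ∀ x y, x ∈ N → y ∈ N → x ∉ D → y ∉ D → x * y ∈ D := by
    intro x y hx hy hxD hyD
    have hlt' : D < D ⊔ Subgroup.zpowers x := lt_of_le_of_ne le_sup_left fun e => hxD (by
      rw [e]; exact Subgroup.mem_sup_right (Subgroup.mem_zpowers x))
    have hle' : D ⊔ Subgroup.zpowers x ≤ N := sup_le hDN.le (Subgroup.zpowers_le.mpr hx)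
    have htop : D ⊔ Subgroup.zpowers x = N := eq_of_le_of_not_lt hle' fun h => hlt'.not_ge (hDmax ⟨hcD.trans le_sup_left, h⟩ le_sup_left)
    rw [← htop] at hy
    obtain ⟨u, hu, v, hv, rfl⟩ := Subgroup.mem_sup_of_normal_left.mp hy
    rcases zpowers_cases ((mN x).mp hx) hv with rfl | rfl
    · rw [mul_one] at hyD; exact absurd hu hyD
    · rw [← mul_assoc, show v * u * v = v * u * v⁻¹ by rw [eq_comm, mul_right_inj, inv_eq_iff_mul_eq_one]; exact (mN v).mp hx]
      exact hDnorm.conj_mem u hu v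
  let H : Subgroup G :=
    { carrier := {g | g * g ∈ D}
      one_mem' := by simp
      mul_mem' := fun {a b} ha hb => by
        show a * b * (a * b) ∈ D
        rw [show a * b * (a * b) = a * ⁅b, a⁆ * a⁻¹ * ((a * a) * (b * b)) by simp only [commutatorElement_def]; group]
        exact D.mul_mem (hDnorm.conj_mem _ (hcD' b a) a) (D.mul_mem ha hb)
      inv_mem' := fun {a} ha => by
        show a⁻¹ * a⁻¹ ∈ D
        rw [← mul_inv_rev]; exact D.inv_mem ha }
  have hNH : N ≤ H := fun x hx => by show x * x ∈ D; rw [(mN x).mp hx]; exact D.one_mem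
  have hr := relIndex_le H N D ⊥ hDN.le hNH bot_le (fun b hb x _ => hWc b (hWeq.ge (hDN.le hb)) x)
    (fun b hb => (mN b).mp (hDN.le hb)) (fun x hx => hx) (fun x _ y _ => hcD' x y)
    (fun a ha => ⟨Subgroup.mem_bot.mpr ((mN a).mp ha), fun x _ => Subgroup.mem_bot.mpr
      (commutatorElement_eq_one_iff_mul_comm.mpr (hWc a (hWeq.ge ha) x))⟩)
    (fun x _ h => (mN x).mpr (Subgroup.mem_bot.mp h))
  rw [Subgroup.relIndex_bot_left] at hr
  have hH2 : H.index ≤ 2 := by
    by_cases ht : H = ⊤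
    · rw [ht, Subgroup.index_top]; norm_num
    obtain ⟨g, hg⟩ : ∃ g, g ∉ H := by
      by_contra h; push Not at h; exact ht (eq_top_iff.mpr fun y _ => h y)
    rw [Subgroup.index_eq_two_iff.mpr ⟨g, fun y => ?_⟩]
    by_cases hy : y ∈ H
    · exact Or.inr ⟨hy, fun h => hg ((Subgroup.mul_mem_cancel_left H hy).mp h)⟩
    · refine Or.inl ⟨?_, hy⟩
      show y * g * (y * g) ∈ D
      rw [show y * g * (y * g) = y * ⁅g, y⁆ * y⁻¹ * ((y * y) * (g * g)) by simp only [commutatorElement_def]; group]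
      exact D.mul_mem (hDnorm.conj_mem _ (hcD' g y) y) (hsame _ _ (hsqN y) (hsqN g) hy hg)
  have h2 : N.index = N.relIndex H * H.index := (Subgroup.relIndex_mul_index hNH).symm
  have hD2 : 2 * Nat.card D ≤ Nat.card N := by
    have hd := Subgroup.card_dvd_of_le hDN.le
    obtain ⟨k, hk⟩ := hd
    have hne : Nat.card D ≠ Nat.card N := fun e => hDN.ne (Subgroup.eq_of_le_of_card_ge hDN.le e.ge)
    rcases k with _ | _ | k
    · rw [hk, mul_zero] at hN0; omega
    · rw [hk] at hne; simp at hne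
    · rw [hk, mul_comm]; exact Nat.mul_le_mul_left _ (by omega)
  rw [h2]
  have : 0 < Nat.card D := Nat.card_pos
  nlinarith

end CfsgLib.ClassTwoExpFour
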